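import Mathlib

/-! S2670 (classes of elements of prime order `r ∣ q - 1` in `PGL_n(q)`): combinatorics of
multiplicity vectors modulo rotation. -/

set_option autoImplicit false

namespace Cfsg.Agent.Lib.Helper65.PR

/-- multiplicity vectors: sum `n`, not concentrated in one coordinate. -/
def XV (r n : ℕ) [Fact r.Prime] : Type := {a : ZMod r → ℕ // ∑ j, a j = n ∧ ∀ j, a j < n}

variable (r n : ℕ) [Fact r.Prime]

instance : AddAction (ZMod r) (XV r n) where
  vadd k a := ⟨fun j => a.1 (j - k), by
      constructor
      · exact (Fintype.sum_equiv (Equiv.subRight k) _ _ (fun j => rfl)).trans a.2.1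
      · intro j; exact a.2.2 _⟩
  zero_vadd a := Subtype.ext (funext fun j => by
    show a.1 (j - 0) = a.1 j
    rw [sub_zero])
  add_vadd k l a := Subtype.ext (funext fun j => by
    show a.1 (j - (k + l)) = a.1 (j - k - l)
    rw [sub_sub])

theorem vadd_val (k : ZMod r) (a : XV r n) (j : ZMod r) : (k +ᵥ a).1 j = a.1 (j - k) := rfl

theorem card_Y : Nat.card {a : ZMod r → ℕ // ∑ j, a j = n} = Nat.choose (n + r - 1) (r - 1) := by
  classical
  have hr : 1 ≤ r := (Fact.out : r.Prime).one_lt.le
  rw [← Nat.card_congr (Sym.equivNatSumOfFintype (ZMod r) n), Nat.card_eq_fintype_card,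
    Sym.card_sym_eq_choose, ZMod.card]
  have h1 : r + n - 1 = n + (r - 1) := by omega
  have h2 : n + r - 1 = n + (r - 1) := by omega
  rw [h1, h2, Nat.choose_symm_add]

instance : Finite {a : ZMod r → ℕ // ∑ j, a j = n} := by
  classical
  exact Finite.of_equiv _ (Sym.equivNatSumOfFintype (ZMod r) n)

instance : Finite (XV r n) :=
  Finite.of_injective (fun a : XV r n => (⟨a.1, a.2.1⟩ : {a : ZMod r → ℕ // ∑ j, a j = n}))
    (fun a b h => Subtype.ext (congrArg (fun y => y.1) h))

theorem card_XV (hn : 1 ≤ n) : Nat.card (XV r n) + r = Nat.choose (n + r - 1) (r - 1) := by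
  classical
  rw [← card_Y r n]
  let f : XV r n ⊕ ZMod r → {a : ZMod r → ℕ // ∑ j, a j = n} := fun x =>
    Sum.elim (fun a => ⟨a.1, a.2.1⟩) (fun j => ⟨Pi.single j n, by simp⟩) x
  have hf : Function.Bijective f := by
    constructor
    · rintro (a | j) (b | i) h
      · have : a.1 = b.1 := congrArg (fun y => y.1) h
        rw [Subtype.ext this]
      · exfalso
        have : a.1 = Pi.single i n := congrArg (fun y => y.1) h
        have h1 := a.2.2 i
        rw [this] at h1
        simp at h1
      · exfalso
        have : Pi.single j n = b.1 := congrArg (fun y => y.1) h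
        have h1 := b.2.2 j
        rw [← this] at h1
        simp at h1
      · have : (Pi.single j n : ZMod r → ℕ) = Pi.single i n := congrArg (fun y => y.1) h
        have h1 := congrFun this j
        rw [Pi.single_eq_same] at h1
        by_cases hji : j = i
        · rw [hji]
        · rw [Pi.single_eq_of_ne hji] at h1
          omega
    · rintro ⟨y, hy⟩
      by_cases h : ∀ j, y j < n
      · exact ⟨Sum.inl ⟨y, hy, h⟩, rfl⟩
      · push Not at h
        obtain ⟨j, hj⟩ := h
        refine ⟨Sum.inr j, Subtype.ext ?_⟩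
        show Pi.single j n = y
        have h1 := Finset.add_sum_erase Finset.univ y (Finset.mem_univ j)
        rw [hy] at h1
        have h2 : ∑ i ∈ Finset.univ.erase j, y i = 0 := by omega
        funext i
        by_cases hij : i = j
        · subst hij
          rw [Pi.single_eq_same]; omega
        · rw [Pi.single_eq_of_ne hij]
          exact ((Finset.sum_eq_zero_iff.mp h2) i (Finset.mem_erase.mpr ⟨hij, Finset.mem_univ i⟩)).symm
  rw [← Nat.card_congr (Equiv.ofBijective f hf), Nat.card_sum, Nat.card_zmod]

theorem const_of_fixed (k : ZMod r) (hk : k ≠ 0) (a : XV r n) (h : k +ᵥ a = a) (j : ZMod r) :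
    a.1 j = a.1 0 := by
  have h1 : ∀ i, a.1 (i - k) = a.1 i := fun i => by
    have := congrArg (fun b : XV r n => b.1 i) h
    exact this
  have h2 : ∀ (m : ℕ) i, a.1 (i - m * k) = a.1 i := by
    intro m
    induction m with
    | zero => intro i; simp
    | succ m ih =>
      intro i
      have : i - ((m + 1 : ℕ) : ZMod r) * k = (i - m * k) - k := by push_cast; ring
      rw [this, h1, ih]
  have h3 := h2 (j * k⁻¹).val j
  rw [ZMod.natCast_zmod_val, mul_assoc, inv_mul_cancel₀ hk, mul_one, sub_self] at h3
  exact h3.symm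

theorem card_fixedBy (hn : 1 ≤ n) (k : ZMod r) (hk : k ≠ 0) :
    Nat.card (AddAction.fixedBy (XV r n) k) = if r ∣ n then 1 else 0 := by
  have hr : 2 ≤ r := (Fact.out : r.Prime).two_le
  have hsum : ∀ a : XV r n, k +ᵥ a = a → r * a.1 0 = n := by
    intro a ha
    have := a.2.1
    rw [Finset.sum_congr rfl (fun j _ => const_of_fixed r n k hk a ha j), Finset.sum_const,
      Finset.card_univ, ZMod.card, smul_eq_mul] at this
    exact this
  split_ifs with hd
  · obtain ⟨c, hc⟩ := hd
    have hc0 : 1 ≤ c := by
      rcases Nat.eq_zero_or_pos c with h | h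
      · rw [h, mul_zero] at hc; omega
      · exact h
    rw [Nat.card_eq_one_iff_unique]
    constructor
    · constructor
      rintro ⟨a, ha⟩ ⟨b, hb⟩
      apply Subtype.ext
      apply Subtype.ext
      funext j
      rw [const_of_fixed r n k hk a ha j, const_of_fixed r n k hk b hb j]
      have h1 := hsum a ha
      have h2 := hsum b hb
      exact Nat.eq_of_mul_eq_mul_left (by omega) (h1.trans h2.symm)
    · refine ⟨⟨⟨fun _ => c, ?_, ?_⟩, ?_⟩⟩
      · rw [Finset.sum_const, Finset.card_univ, ZMod.card, smul_eq_mul, hc]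
      · intro _
        rw [hc]
        nlinarith
      · rfl
  · rw [Nat.card_eq_zero]
    left
    constructor
    rintro ⟨a, ha⟩
    exact hd ⟨_, (hsum a ha).symm⟩

theorem card_orbits (hn : 1 ≤ n) :
    Nat.card (AddAction.orbitRel.Quotient (ZMod r) (XV r n)) * r =
      Nat.card (XV r n) + (r - 1) * (if r ∣ n then 1 else 0) := by
  classical
  have := Fintype.ofFinite (XV r n)
  have := Fintype.ofFinite (AddAction.orbitRel.Quotient (ZMod r) (XV r n))
  have h := AddAction.sum_card_fixedBy_eq_card_orbits_mul_card_addGroup (ZMod r) (XV r n)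
  rw [ZMod.card] at h
  rw [Nat.card_eq_fintype_card, ← h, ← Finset.add_sum_erase Finset.univ _ (Finset.mem_univ (0 : ZMod r))]
  congr 1
  · rw [← Nat.card_eq_fintype_card]
    apply Nat.card_congr
    exact { toFun := fun a => a.1, invFun := fun a => ⟨a, zero_vadd _ a⟩, left_inv := fun _ => rfl,
            right_inv := fun _ => rfl }
  · rw [Finset.sum_congr rfl (fun k hk => by
      rw [← Nat.card_eq_fintype_card, card_fixedBy r n hn k (Finset.mem_erase.mp hk).1]),
      Finset.sum_const, Finset.card_erase_of_mem (Finset.mem_univ _), Finset.card_univ, ZMod.card,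
      smul_eq_mul]

/-- the final arithmetic. -/
theorem count_final (hn : 1 ≤ n) :
    Nat.card (AddAction.orbitRel.Quotient (ZMod r) (XV r n)) + (r - 1) * (if r ∣ n then 1 else 0) =
      (Nat.choose (n + r - 1) (r - 1) - r - (if r ∣ n then 1 else 0)) / r +
        r * (if r ∣ n then 1 else 0) := by
  have hr : 2 ≤ r := (Fact.out : r.Prime).two_le
  have h1 := card_orbits r n hn
  have h2 := card_XV r n hn
  set N := Nat.card (AddAction.orbitRel.Quotient (ZMod r) (XV r n))
  set x := Nat.card (XV r n)
  set C := Nat.choose (n + r - 1) (r - 1)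
  have hC : C - r = x := by omega
  rw [hC]
  split_ifs at h1 ⊢ with hd
  · simp only [mul_one] at h1 ⊢
    -- N * r = x + (r - 1); x - 1 = (N - 1) * r
    have hN : 1 ≤ N := by
      rcases Nat.eq_zero_or_pos N with h | h
      · rw [h, zero_mul] at h1; omega
      · exact h
    have h3 : x - 1 = (N - 1) * r := by
      obtain ⟨M, hM⟩ : ∃ M, N = M + 1 := ⟨N - 1, by omega⟩
      rw [hM] at h1 ⊢
      rw [Nat.add_sub_cancel]
      have : (M + 1) * r = M * r + r := by ring
      omega
    rw [h3, Nat.mul_div_cancel _ (by omega)]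
    omega
  · simp only [mul_zero, add_zero, Nat.sub_zero] at h1 ⊢
    rw [← h1, Nat.mul_div_cancel _ (by omega)]

end Cfsg.Agent.Lib.Helper65.PR
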