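import Cfsg.Agent.Lib.Helper65.PR.Mat
import Cfsg.Agent.Lib.Helper65.GR.CNT

/-! S2670: basic facts on `GL_n(F)` modulo scalars. -/

set_option autoImplicit false

namespace Cfsg.Agent.Lib.Helper65.PR

open Polynomial

variable {F : Type*} [Field F] {n : ℕ}

/-- scalar matrices as a homomorphism. -/
noncomputable abbrev S (F : Type*) [Field F] (n : ℕ) : Fˣ →* GL (Fin n) F :=
  Matrix.GeneralLinearGroup.scalar (Fin n)

theorem S_val (u : Fˣ) : ((S F n u : GL (Fin n) F) : Matrix (Fin n) (Fin n) F) = (u : F) • 1 := by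
  rw [Matrix.GeneralLinearGroup.coe_scalar]
  simp [Matrix.smul_one_eq_diagonal]

theorem S_mem (u : Fˣ) : S F n u ∈ Subgroup.center (GL (Fin n) F) := by
  rw [Matrix.GeneralLinearGroup.center_eq_range_scalar]
  exact ⟨u, rfl⟩

theorem exists_S {z : GL (Fin n) F} (hz : z ∈ Subgroup.center (GL (Fin n) F)) :
    ∃ u, S F n u = z := by
  rw [Matrix.GeneralLinearGroup.center_eq_range_scalar] at hz
  exact hz

theorem S_inj (hn : 1 ≤ n) : Function.Injective (S F n) := by
  intro u v h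
  have h1 := congrArg (fun g : GL (Fin n) F => (g : Matrix (Fin n) (Fin n) F) ⟨0, by omega⟩ ⟨0, by omega⟩) h
  simp only [S_val, Matrix.smul_apply, Matrix.one_apply_eq, smul_eq_mul, mul_one] at h1
  exact Units.ext h1

theorem S_mul_val (u : Fˣ) (g : GL (Fin n) F) :
    ((S F n u * g : GL (Fin n) F) : Matrix (Fin n) (Fin n) F) = (u : F) • g.1 := by
  rw [Units.val_mul, S_val]; simp

theorem S_charpoly (u : Fˣ) :
    ((S F n u : GL (Fin n) F) : Matrix (Fin n) (Fin n) F).charpoly = (X - C (u : F)) ^ n := by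
  rw [S_val, Matrix.smul_one_eq_diagonal, Matrix.charpoly_diagonal]
  simp

theorem mk_S_mul (u : Fˣ) (g : GL (Fin n) F) :
    ((S F n u * g : GL (Fin n) F) : GL (Fin n) F ⧸ Subgroup.center (GL (Fin n) F)) = g := by
  rw [QuotientGroup.mk_mul, (QuotientGroup.eq_one_iff _).mpr (S_mem u), one_mul]

theorem isConj_mk_iff (g g' : GL (Fin n) F) :
    IsConj (g : GL (Fin n) F ⧸ Subgroup.center (GL (Fin n) F)) g' ↔
      ∃ (k : GL (Fin n) F) (u : Fˣ), k * g * k⁻¹ = S F n u * g' := by
  rw [isConj_iff]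
  constructor
  · rintro ⟨c, hc⟩
    induction c using QuotientGroup.induction_on with | _ k => ?_
    have h1 : ((k * g * k⁻¹ : GL (Fin n) F) : GL (Fin n) F ⧸ Subgroup.center (GL (Fin n) F)) = g' :=
      hc
    rw [QuotientGroup.eq_iff_div_mem] at h1
    obtain ⟨u, hu⟩ := exists_S h1
    exact ⟨k, u, by rw [hu, div_mul_cancel]⟩
  · rintro ⟨k, u, h⟩
    refine ⟨(k : GL (Fin n) F ⧸ Subgroup.center (GL (Fin n) F)), ?_⟩
    have h1 : ((k * g * k⁻¹ : GL (Fin n) F) : GL (Fin n) F ⧸ Subgroup.center (GL (Fin n) F)) = g' := by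
      rw [h, mk_S_mul]
    exact h1

theorem orderOf_mk_iff (r : ℕ) [Fact r.Prime] (g : GL (Fin n) F) :
    orderOf (g : GL (Fin n) F ⧸ Subgroup.center (GL (Fin n) F)) = r ↔
      g ∉ Subgroup.center (GL (Fin n) F) ∧ g ^ r ∈ Subgroup.center (GL (Fin n) F) := by
  rw [orderOf_eq_prime_iff, ← QuotientGroup.mk_pow, QuotientGroup.eq_one_iff, ne_eq,
    QuotientGroup.eq_one_iff, and_comm]

theorem conj_charpoly (k g : GL (Fin n) F) :
    ((k * g * k⁻¹ : GL (Fin n) F) : Matrix (Fin n) (Fin n) F).charpoly = g.1.charpoly := by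
  simp only [Units.val_mul]
  rw [Matrix.charpoly_mul_comm, ← mul_assoc]
  simp

theorem pow_rel (hn : 1 ≤ n) (r : ℕ) (k g g' : GL (Fin n) F) (u v v' : Fˣ)
    (h : k * g * k⁻¹ = S F n u * g') (hg : g ^ r = S F n v) (hg' : g' ^ r = S F n v') :
    v = u ^ r * v' := by
  apply S_inj hn
  have h1 : (k * g * k⁻¹) ^ r = S F n v := by
    rw [conj_pow, hg, ← Matrix.GeneralLinearGroup.scalar_commute, mul_assoc, mul_inv_cancel, mul_one]
  have h2 : (S F n u * g') ^ r = S F n (u ^ r * v') := by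
    have hc : Commute (S F n u) g' := Matrix.GeneralLinearGroup.scalar_commute u g'
    rw [hc.mul_pow, hg', map_mul, map_pow]
  rw [← h1, h, h2]

theorem coprime_order [Fintype F] (p : ℕ) [Fact p.Prime] [CharP F p] (r : ℕ) [Fact r.Prime]
    (hrq : r ∣ Fintype.card F - 1) (g : GL (Fin n) F) (v : Fˣ) (hg : g ^ r = S F n v) :
    (orderOf g).Coprime p := by
  classical
  have hp : p.Prime := Fact.out
  have hr : r.Prime := Fact.out
  have h1 : g ^ (r * (Fintype.card F - 1)) = 1 := by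
    rw [pow_mul, hg, ← map_pow, ← Fintype.card_units, pow_card_eq_one, map_one]
  have h2 := orderOf_dvd_of_pow_eq_one h1
  obtain ⟨f, -, hf⟩ := FiniteField.card F p
  have hpq : p ∣ Fintype.card F := by
    rw [hf]; exact dvd_pow_self p f.pos.ne'
  have hq1 : 1 < Fintype.card F := Fintype.one_lt_card
  have h3 : ¬ p ∣ Fintype.card F - 1 := by
    intro h
    have : p ∣ 1 := by
      have h4 := Nat.dvd_sub hpq h
      have h5 : Fintype.card F - (Fintype.card F - 1) = 1 := by omega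
      rwa [h5] at h4
    exact hp.one_lt.ne' (Nat.dvd_one.mp this)
  have h4 : ¬ p ∣ r := by
    intro h
    exact h3 (h.trans hrq)
  have h5 : (r * (Fintype.card F - 1)).Coprime p :=
    Nat.Coprime.mul_left ((Nat.Prime.coprime_iff_not_dvd hp).mpr h4).symm
      ((Nat.Prime.coprime_iff_not_dvd hp).mpr h3).symm
  exact Nat.Coprime.coprime_dvd_left h2 h5

theorem single_of_le (r : ℕ) [Fact r.Prime] (a : ZMod r → ℕ) (ha : ∑ j, a j = n) (j : ZMod r)
    (hj : n ≤ a j) : a = Pi.single j n := by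
  classical
  have h1 := Finset.add_sum_erase Finset.univ a (Finset.mem_univ j)
  rw [ha] at h1
  have h2 : ∑ i ∈ Finset.univ.erase j, a i = 0 := by omega
  funext i
  by_cases hij : i = j
  · subst hij
    rw [Pi.single_eq_same]; omega
  · rw [Pi.single_eq_of_ne hij]
    exact (Finset.sum_eq_zero_iff.mp h2) i (Finset.mem_erase.mpr ⟨hij, Finset.mem_univ i⟩)

theorem card_ne {α : Type*} [Finite α] (a : α) : Nat.card {x : α // x ≠ a} = Nat.card α - 1 := by
  classical
  have := Fintype.ofFinite α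
  rw [Nat.card_eq_fintype_card, Nat.card_eq_fintype_card, Fintype.card_subtype_compl,
    Fintype.card_subtype_eq]

end Cfsg.Agent.Lib.Helper65.PR
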