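import Cfsg.Agent.Lib.Helper65.PR.Grp

/-! S2670: the class count. -/

set_option autoImplicit false
set_option maxHeartbeats 1000000

namespace Cfsg.Agent.Lib.Helper65.PR

open Polynomial

variable {F : Type*} [Field F] [Fintype F] {n : ℕ}
set_option linter.unusedSectionVars false
set_option linter.style.haveILetI false

/-- the group of `r`-th powers. -/
abbrev RP (F : Type*) [Field F] (r : ℕ) : Subgroup Fˣ := (powMonoidHom r : Fˣ →* Fˣ).range

theorem not_pow_of_not_mem (r : ℕ) [Fact r.Prime] (v : Fˣ) (hv : v ∉ RP F r) :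
    ∀ b : F, b ^ r ≠ (v : F) := by
  intro b hb
  have hb0 : b ≠ 0 := by
    rintro rfl
    rw [zero_pow (Fact.out : r.Prime).ne_zero] at hb
    exact v.ne_zero hb.symm
  exact hv ⟨Units.mk0 b hb0, Units.ext hb⟩

theorem card_LB (r : ℕ) [Fact r.Prime] (hrq : r ∣ Fintype.card F - 1) :
    Nat.card {x : Fˣ ⧸ RP F r // x ≠ 1 ∧ r ∣ n} = (r - 1) * (if r ∣ n then 1 else 0) := by
  classical
  split_ifs with hd
  · rw [mul_one]
    have e : {x : Fˣ ⧸ RP F r // x ≠ 1 ∧ r ∣ n} ≃ {x : Fˣ ⧸ RP F r // x ≠ 1} :=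
      Equiv.subtypeEquivRight (fun x => by simp [hd])
    rw [Nat.card_congr e, card_ne]
    have : Nat.card (Fˣ ⧸ RP F r) = r := by
      have h := IsCyclic.index_powMonoidHom_range (G := Fˣ) r
      rw [Nat.card_eq_fintype_card, Fintype.card_units, Nat.gcd_eq_right hrq] at h
      exact h
    rw [this]
  · rw [mul_zero, Nat.card_eq_zero]
    left
    exact ⟨fun x => hd x.2.2⟩

theorem main (hn : 2 ≤ n) (r : ℕ) [Fact r.Prime] (hrq : r ∣ Fintype.card F - 1) :
    Nat.card {C : ConjClasses (GL (Fin n) F ⧸ Subgroup.center (GL (Fin n) F)) //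
      ∃ g : GL (Fin n) F ⧸ Subgroup.center (GL (Fin n) F), ConjClasses.mk g = C ∧ orderOf g = r} =
    Nat.card (AddAction.orbitRel.Quotient (ZMod r) (XV r n)) +
      (r - 1) * (if r ∣ n then 1 else 0) := by
  classical
  have hr : r.Prime := Fact.out
  have hn1 : 1 ≤ n := by omega
  obtain ⟨p, hchar⟩ := CharP.exists F
  haveI : Fact p.Prime := ⟨CharP.char_is_prime F p⟩
  obtain ⟨ζu, hζu⟩ := exists_prime_orderOf_dvd_card r (G := Fˣ) (by rw [Fintype.card_units]; exact hrq)
  have hζ : IsPrimitiveRoot (ζu : F) r := by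
    rw [IsPrimitiveRoot.coe_units_iff, ← hζu]
    exact IsPrimitiveRoot.orderOf ζu
  set ζ : F := (ζu : F) with hζdef
  rw [← card_LB (F := F) (n := n) r hrq, ← Nat.card_sum]
  choose gA hA1 hA2 hA3 using fun a : XV r n => exists_pa r p hn1 hζ a.1 a.2.1
  choose gB hB1 hB2 hB3 using fun x : {x : Fˣ ⧸ RP F r // x ≠ 1 ∧ r ∣ n} =>
    exists_typeB r p hn1 ((Quotient.out x.1 : Fˣ) : F) (Units.ne_zero _) (n / r)
      (Nat.mul_div_cancel' x.2.2).symm
  have hA1' : ∀ a, gA a ^ r = S F n 1 := fun a => by rw [hA1, map_one]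
  have hB1' : ∀ x, gB x ^ r = S F n (Quotient.out x.1) := fun x => by
    apply Units.ext
    rw [Units.val_pow_eq_pow_val, hB1, S_val]
  have hout : ∀ x : {x : Fˣ ⧸ RP F r // x ≠ 1 ∧ r ∣ n}, (Quotient.out x.1 : Fˣ) ∉ RP F r := by
    intro x hx
    apply x.2.1
    rw [← QuotientGroup.out_eq' x.1]
    exact (QuotientGroup.eq_one_iff _).mpr hx
  let φ : (AddAction.orbitRel.Quotient (ZMod r) (XV r n)) ⊕ {x : Fˣ ⧸ RP F r // x ≠ 1 ∧ r ∣ n} →
      GL (Fin n) F ⧸ Subgroup.center (GL (Fin n) F) :=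
    Sum.elim (fun o => ((gA (Quotient.out o) : GL (Fin n) F) : GL (Fin n) F ⧸ _))
      (fun x => ((gB x : GL (Fin n) F) : GL (Fin n) F ⧸ _))
  refine Cfsg.Agent.Lib.Helper65.GR.card_classes_label (fun g => orderOf g = r) φ ?_ ?_ ?_
  · -- orders
    rintro (o | x)
    · show orderOf ((gA (Quotient.out o) : GL (Fin n) F) : GL (Fin n) F ⧸ Subgroup.center (GL (Fin n) F)) = r
      rw [orderOf_mk_iff]
      refine ⟨?_, by rw [hA1]; exact Subgroup.one_mem _⟩
      intro hz
      obtain ⟨u, hu⟩ := exists_S hz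
      have h1 : u ^ r = 1 := by
        apply S_inj (F := F) hn1
        rw [map_pow, hu, hA1, map_one]
      have h2 : (u : F) ^ r = 1 := by
        rw [← Units.val_pow_eq_pow_val, h1, Units.val_one]
      obtain ⟨j, hj⟩ := exists_zeta_pow hζ _ h2
      have h3 := hA3 (Quotient.out o)
      rw [← hu, S_charpoly, hj, ← pa_single] at h3
      have h4 := pa_injective hζ _ _ h3
      have h5 := (Quotient.out o).2.2 j
      rw [← h4, Pi.single_eq_same] at h5
      exact lt_irrefl _ h5
    · show orderOf ((gB x : GL (Fin n) F) : GL (Fin n) F ⧸ Subgroup.center (GL (Fin n) F)) = r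
      rw [orderOf_mk_iff]
      refine ⟨?_, by rw [hB1']; exact S_mem _⟩
      intro hz
      obtain ⟨u, hu⟩ := exists_S hz
      apply hout x
      refine ⟨u, ?_⟩
      apply S_inj (F := F) hn1
      rw [← hB1', ← hu]
      simp
  · -- distinct labels are not conjugate
    rintro (o | x) (o' | x') h
    · have h' : IsConj ((gA (Quotient.out o) : GL (Fin n) F) : GL (Fin n) F ⧸ Subgroup.center (GL (Fin n) F))
          (gA (Quotient.out o')) := h
      rw [isConj_mk_iff] at h'
      obtain ⟨k, u, hk⟩ := h'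
      have h1 := pow_rel hn1 r k _ _ u 1 1 hk (hA1' _) (hA1' _)
      have h2 : (u : F) ^ r = 1 := by
        rw [← Units.val_pow_eq_pow_val]
        rw [mul_one] at h1
        rw [← h1, Units.val_one]
      obtain ⟨κ, hκ⟩ := exists_zeta_pow hζ _ h2
      have h3 := conj_charpoly k (gA (Quotient.out o))
      rw [hk, S_mul_val, hκ, charpoly_zeta_smul r hζ κ _ (Quotient.out o').2.1 _ (hA3 _), hA3] at h3
      have h4 := pa_injective hζ _ _ h3
      have h5 : κ +ᵥ (Quotient.out o') = Quotient.out o := Subtype.ext h4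
      congr 1
      rw [← Quotient.out_eq o, ← Quotient.out_eq o']
      apply Quotient.sound
      show AddAction.orbitRel (ZMod r) (XV r n) _ _
      rw [AddAction.orbitRel_apply]
      exact ⟨κ, h5⟩
    · exfalso
      have h' : IsConj ((gA (Quotient.out o) : GL (Fin n) F) : GL (Fin n) F ⧸ Subgroup.center (GL (Fin n) F))
          (gB x') := h
      rw [isConj_mk_iff] at h'
      obtain ⟨k, u, hk⟩ := h'
      have h1 := pow_rel hn1 r k _ _ u 1 _ hk (hA1' _) (hB1' _)
      apply hout x'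
      refine ⟨u⁻¹, ?_⟩
      show u⁻¹ ^ r = _
      rw [inv_pow, inv_eq_iff_mul_eq_one]
      exact h1.symm
    · exfalso
      have h' : IsConj ((gB x : GL (Fin n) F) : GL (Fin n) F ⧸ Subgroup.center (GL (Fin n) F))
          (gA (Quotient.out o')) := h
      rw [isConj_mk_iff] at h'
      obtain ⟨k, u, hk⟩ := h'
      have h1 := pow_rel hn1 r k _ _ u _ 1 hk (hB1' _) (hA1' _)
      apply hout x
      refine ⟨u, ?_⟩
      show u ^ r = _
      rw [h1, mul_one]
    · have h' : IsConj ((gB x : GL (Fin n) F) : GL (Fin n) F ⧸ Subgroup.center (GL (Fin n) F))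
          (gB x') := h
      rw [isConj_mk_iff] at h'
      obtain ⟨k, u, hk⟩ := h'
      have h1 := pow_rel hn1 r k _ _ u _ _ hk (hB1' _) (hB1' _)
      congr 1
      apply Subtype.ext
      rw [← QuotientGroup.out_eq' x.1, ← QuotientGroup.out_eq' x'.1, QuotientGroup.eq]
      refine ⟨u⁻¹, ?_⟩
      show u⁻¹ ^ r = _
      rw [h1, mul_inv, mul_assoc, inv_mul_cancel, mul_one, inv_pow]
  · -- every element of order r is conjugate to a representative
    intro x hx
    induction x using QuotientGroup.induction_on with | _ g => ?_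
    have hx' : orderOf (g : GL (Fin n) F ⧸ Subgroup.center (GL (Fin n) F)) = r := hx
    rw [orderOf_mk_iff] at hx'
    obtain ⟨hgZ, hgr⟩ := hx'
    obtain ⟨v, hv⟩ := exists_S hgr
    by_cases hvR : v ∈ RP F r
    · obtain ⟨w, hw⟩ := hvR
      have hw' : w ^ r = v := hw
      set g' := S F n w⁻¹ * g with hg'
      have hc : Commute (S F n w⁻¹) g := Matrix.GeneralLinearGroup.scalar_commute _ g
      have hg'r : g' ^ r = 1 := by
        rw [hg', hc.mul_pow, ← hv, ← map_pow, ← map_mul, inv_pow, hw', inv_mul_cancel, map_one]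
      have hg'Z : g' ∉ Subgroup.center (GL (Fin n) F) := by
        intro h
        apply hgZ
        have : g = S F n w * g' := by
          rw [hg', ← mul_assoc, ← map_mul, mul_inv_cancel, map_one, one_mul]
        rw [this]
        exact Subgroup.mul_mem _ (S_mem _) h
      obtain ⟨a, ha, hca⟩ := charpoly_eq_pa r hζ g'.1
        (by rw [← Units.val_pow_eq_pow_val, hg'r, Units.val_one])
      have hlt : ∀ j, a j < n := by
        intro j
        by_contra hj
        push Not at hj
        have h1 := single_of_le r a ha j hj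
        rw [h1, pa_single] at hca
        have h2 : ((S F n (ζu ^ j.val) : GL (Fin n) F) : Matrix (Fin n) (Fin n) F).charpoly =
            (X - C (ζ ^ j.val)) ^ n := by
          rw [S_charpoly]; simp [hζdef]
        obtain ⟨k, hk⟩ := Cfsg.Agent.Lib.Helper50.SemiConj.conj_GL p g' (S F n (ζu ^ j.val))
          (coprime_order p r hrq g' 1 (by rw [hg'r, map_one]))
          (coprime_order p r hrq _ ((ζu ^ j.val) ^ r) (map_pow _ _ _).symm) (by rw [hca, h2])
        apply hg'Z
        have h3 : g' = k⁻¹ * S F n (ζu ^ j.val) * k := by rw [← hk]; group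
        rw [h3, ← Matrix.GeneralLinearGroup.scalar_commute, mul_assoc, inv_mul_cancel, mul_one]
        exact S_mem _
      let A : XV r n := ⟨a, ha, hlt⟩
      let o : AddAction.orbitRel.Quotient (ZMod r) (XV r n) := Quotient.mk _ A
      have ho : AddAction.orbitRel (ZMod r) (XV r n) (Quotient.out o) A := Quotient.mk_out A
      rw [AddAction.orbitRel_apply] at ho
      obtain ⟨κ, hκ⟩ := ho
      have hκ' : κ +ᵥ A = Quotient.out o := hκ
      refine ⟨Sum.inl o, ?_⟩
      show IsConj (g : GL (Fin n) F ⧸ Subgroup.center (GL (Fin n) F)) (gA (Quotient.out o))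
      have h1 : ((S F n (ζu ^ κ.val) * g' : GL (Fin n) F) : Matrix (Fin n) (Fin n) F).charpoly =
          (gA (Quotient.out o)).1.charpoly := by
        rw [S_mul_val, hA3, ← hκ']
        have : ((ζu ^ κ.val : Fˣ) : F) = ζ ^ κ.val := by simp [hζdef]
        rw [this, charpoly_zeta_smul r hζ κ a ha _ hca]
        rfl
      have hc2 : Commute (S F n (ζu ^ κ.val)) g' := Matrix.GeneralLinearGroup.scalar_commute _ g'
      obtain ⟨k, hk⟩ := Cfsg.Agent.Lib.Helper50.SemiConj.conj_GL p (S F n (ζu ^ κ.val) * g')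
        (gA (Quotient.out o))
        (coprime_order p r hrq _ ((ζu ^ κ.val) ^ r) (by
          rw [hc2.mul_pow, hg'r, mul_one]; exact (map_pow _ _ _).symm))
        (hA2 _) h1
      have h2 : (g : GL (Fin n) F ⧸ Subgroup.center (GL (Fin n) F)) =
          ((S F n (ζu ^ κ.val) * g' : GL (Fin n) F) : GL (Fin n) F ⧸ _) := by
        rw [mk_S_mul, hg', mk_S_mul]
      rw [h2, isConj_mk_iff]
      exact ⟨k, 1, by rw [hk, map_one, one_mul]⟩
    · have hpow := not_pow_of_not_mem r v hvR
      obtain ⟨k0, hk0, -⟩ := charpoly_typeB r (v : F) hpow g.1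
        (by rw [← Units.val_pow_eq_pow_val, ← hv, S_val])
      have hdvd : r ∣ n := ⟨k0, hk0⟩
      have hne : ((v : Fˣ) : Fˣ ⧸ RP F r) ≠ 1 := by
        rw [ne_eq, QuotientGroup.eq_one_iff]; exact hvR
      let x : {x : Fˣ ⧸ RP F r // x ≠ 1 ∧ r ∣ n} := ⟨(v : Fˣ ⧸ RP F r), hne, hdvd⟩
      obtain ⟨⟨h, w, hw⟩, hh⟩ := QuotientGroup.mk_out_eq_mul (RP F r) v
      have hw' : w ^ r = h := hw
      have hh' : (Quotient.out x.1 : Fˣ) = v * w ^ r := by rw [hw']; exact hh
      set g' := S F n w * g with hg'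
      have hc : Commute (S F n w) g := Matrix.GeneralLinearGroup.scalar_commute _ g
      have hg'r : g' ^ r = S F n (Quotient.out x.1) := by
        rw [hg', hc.mul_pow, ← hv, ← map_pow, ← map_mul, hh', mul_comm]
      refine ⟨Sum.inr x, ?_⟩
      show IsConj (g : GL (Fin n) F ⧸ Subgroup.center (GL (Fin n) F)) (gB x)
      obtain ⟨k1, hk1, hcp⟩ := charpoly_typeB r ((Quotient.out x.1 : Fˣ) : F)
        (not_pow_of_not_mem r _ (hout x)) g'.1
        (by rw [← Units.val_pow_eq_pow_val, hg'r, S_val])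
      have hk1' : k1 = n / r := by
        rw [hk1, Nat.mul_div_cancel_left _ hr.pos]
      obtain ⟨k, hk⟩ := Cfsg.Agent.Lib.Helper50.SemiConj.conj_GL p g' (gB x)
        (coprime_order p r hrq _ _ hg'r) (hB2 _) (by rw [hcp, hB3, hk1'])
      have h2 : (g : GL (Fin n) F ⧸ Subgroup.center (GL (Fin n) F)) =
          ((g' : GL (Fin n) F) : GL (Fin n) F ⧸ _) := by
        rw [hg', mk_S_mul]
      rw [h2, isConj_mk_iff]
      exact ⟨k, 1, by rw [hk, map_one, one_mul]⟩

end Cfsg.Agent.Lib.Helper65.PR
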