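import Cfsg.Agent.Lib.Helper65.PR.Poly
import Cfsg.Agent.Lib.Helper48.PGLInv
import Cfsg.Agent.Lib.Helper50.SemiClass
import Cfsg.Agent.Lib.Helper50.SemiDet

/-! S2670: matrices with `M^r` scalar. -/

set_option autoImplicit false

namespace Cfsg.Agent.Lib.Helper65.PR

open Polynomial

variable {F : Type*} [Field F]

/-- characteristic polynomial of a scalar multiple. -/
theorem charpoly_smul_comp {n : ℕ} (c : F) (hc : c ≠ 0) (M : Matrix (Fin n) (Fin n) F) :
    M.charpoly.comp (C c⁻¹ * X) = C (c⁻¹ ^ n) * (c • M).charpoly := by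
  have h1 : M.charpoly.comp (C c⁻¹ * X) = (compRingHom (C c⁻¹ * X : F[X])) M.charpoly := rfl
  rw [h1, Matrix.charpoly, RingHom.map_det]
  have h2 : (compRingHom (C c⁻¹ * X : F[X])).mapMatrix (Matrix.charmatrix M) =
      (C c⁻¹ : F[X]) • Matrix.charmatrix (c • M) := by
    ext i j : 1
    simp only [RingHom.mapMatrix_apply, Matrix.map_apply, Matrix.smul_apply, smul_eq_mul,
      Matrix.charmatrix_apply, coe_compRingHom_apply]
    by_cases hij : i = j
    · subst hij
      simp only [Matrix.diagonal_apply_eq, sub_comp, X_comp, C_comp, mul_sub, ← C_mul]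
      congr 2
      field_simp
    · simp only [Matrix.diagonal_apply_ne _ hij, sub_comp, zero_comp, C_comp, mul_sub, mul_zero,
        ← C_mul]
      congr 2
      field_simp
  rw [h2, Matrix.det_smul, Fintype.card_fin, Matrix.charpoly, C_pow]

variable (r : ℕ) [Fact r.Prime] {ζ : F}

theorem charpoly_zeta_smul {n : ℕ} (hζ : IsPrimitiveRoot ζ r) (k : ZMod r) (a : ZMod r → ℕ)
    (ha : ∑ j, a j = n) (M : Matrix (Fin n) (Fin n) F) (hM : M.charpoly = pa r ζ a) :
    ((ζ ^ k.val) • M).charpoly = pa r ζ (fun j => a (j - k)) := by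
  have hz : ζ ^ k.val ≠ 0 := pow_ne_zero _ (hζ.ne_zero (Fact.out : r.Prime).ne_zero)
  have h1 := charpoly_smul_comp (ζ ^ k.val) hz M
  rw [hM, pa_comp hζ, ha] at h1
  have h2 : (C ((ζ ^ k.val)⁻¹ ^ n) : F[X]) ≠ 0 := by
    rw [Ne, C_eq_zero]
    exact pow_ne_zero _ (inv_ne_zero hz)
  exact (mul_left_cancel₀ h2 h1).symm

/-- [FAC] -/
theorem charpoly_eq_pa {n : ℕ} (hζ : IsPrimitiveRoot ζ r) (M : Matrix (Fin n) (Fin n) F)
    (hM : M ^ r = 1) : ∃ a : ZMod r → ℕ, ∑ j, a j = n ∧ M.charpoly = pa r ζ a := by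
  classical
  have hr : r.Prime := Fact.out
  set N := UniqueFactorizationMonoid.normalizedFactors M.charpoly with hN
  have hne : M.charpoly ≠ 0 := (Matrix.charpoly_monic M).ne_zero
  have hann : aeval M (X ^ r - 1 : F[X]) = 0 := by simp [hM]
  have hmon : ∀ Q ∈ N, Q.Monic := by
    intro Q hQ
    have iQ := UniqueFactorizationMonoid.irreducible_of_normalized_factor Q hQ
    rw [← UniqueFactorizationMonoid.normalize_normalized_factor Q hQ]
    exact monic_normalize iQ.ne_zero
  have hmem : ∀ Q ∈ N, ∃ j : ZMod r, Q = X - C (ζ ^ j.val) := by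
    intro Q hQ
    have iQ := UniqueFactorizationMonoid.irreducible_of_normalized_factor Q hQ
    have mQ := hmon Q hQ
    have dQ := Cfsg.Agent.Lib.Helper48.dvd_of_aeval_eq_zero' M _ Q hann iQ
      (UniqueFactorizationMonoid.dvd_of_mem_normalizedFactors hQ)
    rw [X_pow_sub_one_eq_prod hr.pos hζ, iQ.prime.dvd_finsetProd_iff] at dQ
    obtain ⟨ξ, hξ, hd⟩ := dQ
    rw [mem_nthRootsFinset hr.pos] at hξ
    obtain ⟨j, rfl⟩ := exists_zeta_pow hζ ξ hξ
    exact ⟨j, eq_of_monic_of_associated mQ (monic_X_sub_C _)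
      (iQ.associated_of_dvd (irreducible_X_sub_C _) hd)⟩
  have hprod : M.charpoly = N.prod :=
    (eq_of_monic_of_associated (monic_multiset_prod_of_monic N id (fun Q hQ => hmon Q hQ) |> fun h => by
      simpa using h) (Matrix.charpoly_monic M)
      (UniqueFactorizationMonoid.prod_normalizedFactors hne)).symm
  have hinj : Function.Injective (fun j : ZMod r => (X - C (ζ ^ j.val) : F[X])) := by
    intro i j h
    apply zeta_inj hζ
    have h2 : C (ζ ^ i.val) = C (ζ ^ j.val) := by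
      have h3 : (X - C (ζ ^ i.val) : F[X]) = X - C (ζ ^ j.val) := h
      exact sub_right_injective h3
    exact C_injective h2
  have h1 : N.prod = ∏ Q ∈ Finset.univ.image (fun j : ZMod r => (X - C (ζ ^ j.val) : F[X])),
      Q ^ N.count Q := by
    rw [Finset.prod_multiset_count]
    apply Finset.prod_subset
    · intro Q hQ
      rw [Multiset.mem_toFinset] at hQ
      obtain ⟨j, rfl⟩ := hmem Q hQ
      exact Finset.mem_image_of_mem _ (Finset.mem_univ j)
    · intro Q _ hQ
      rw [Multiset.mem_toFinset] at hQ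
      rw [Multiset.count_eq_zero_of_notMem hQ, pow_zero]
  rw [Finset.prod_image (fun i _ j _ h => hinj h)] at h1
  refine ⟨fun j => N.count (X - C (ζ ^ j.val)), ?_, hprod.trans h1⟩
  have h2 := congrArg natDegree (hprod.trans h1)
  rw [Matrix.charpoly_natDegree_eq_dim, Fintype.card_fin] at h2
  rw [h2]
  exact (pa_natDegree r ζ _).symm

/-- a semisimple matrix whose characteristic polynomial divides a power of `f` is killed by `f`. -/
theorem aeval_eq_zero_of_coprime_order (p : ℕ) [Fact p.Prime] [CharP F p] {n : ℕ}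
    (g : GL (Fin n) F) (hg : (orderOf g).Coprime p) (f : F[X]) (m : ℕ) (hm : m ≠ 0)
    (hd : (g : Matrix (Fin n) (Fin n) F).charpoly ∣ f ^ m) :
    aeval (g : Matrix (Fin n) (Fin n) F) f = 0 := by
  have hp : p.Prime := Fact.out
  have hss : Module.End.IsSemisimple (Matrix.toLin' g.1) :=
    Cfsg.Agent.Lib.Helper50.SemiConj.isSemisimple_toLin' g.1 (orderOf g)
      (Cfsg.Agent.Lib.Helper50.SemiConj.cast_ne_zero_of_coprime p hg hp.ne_one)
      (by rw [← Units.val_pow_eq_pow_val, pow_orderOf_eq_one, Units.val_one])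
  have hsq := hss.minpoly_squarefree
  rw [Matrix.minpoly_toLin'] at hsq
  have h1 : minpoly F g.1 ∣ f ^ m := (Matrix.minpoly_dvd_charpoly g.1).trans hd
  rwa [hsq.dvd_pow_iff_dvd hm, minpoly.dvd_iff] at h1

/-- [EX] -/
theorem exists_pa [Fintype F] (p : ℕ) [Fact p.Prime] [CharP F p] {n : ℕ} (hn : 1 ≤ n)
    (hζ : IsPrimitiveRoot ζ r) (a : ZMod r → ℕ) (ha : ∑ j, a j = n) :
    ∃ g : GL (Fin n) F, g ^ r = 1 ∧ (orderOf g).Coprime p ∧
      (g : Matrix (Fin n) (Fin n) F).charpoly = pa r ζ a := by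
  have hr : r.Prime := Fact.out
  have hdvd := pa_dvd hζ a
  rw [ha] at hdvd
  have h0 : (pa r ζ a).coeff 0 ≠ 0 := by
    intro h
    have hX : (X : F[X]) ∣ pa r ζ a := X_dvd_iff.mpr h
    have := prime_X.dvd_of_dvd_pow (hX.trans hdvd)
    rw [X_dvd_iff] at this
    simp [hr.ne_zero.symm] at this
  obtain ⟨g, hg, hc⟩ := Cfsg.Agent.Lib.Helper50.SemiConj.exists_GL_coprime p _ (pa_monic r ζ a)
    ((pa_natDegree r ζ a).trans ha) h0
  refine ⟨g, ?_, hg, hc⟩
  have h1 := aeval_eq_zero_of_coprime_order p g hg (X ^ r - 1) n (by omega) (by rw [hc]; exact hdvd)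
  apply Units.ext
  rw [Units.val_pow_eq_pow_val, Units.val_one]
  simpa [sub_eq_zero] using h1

/-- type B: the characteristic polynomial. -/
theorem charpoly_typeB {n : ℕ} (l : F) (hl : ∀ b : F, b ^ r ≠ l) (M : Matrix (Fin n) (Fin n) F)
    (hM : M ^ r = l • 1) : ∃ k, n = r * k ∧ M.charpoly = (X ^ r - C l) ^ k := by
  classical
  have hr : r.Prime := Fact.out
  have hirr : Irreducible (X ^ r - C l : F[X]) := X_pow_sub_C_irreducible_of_prime hr hl
  have hmonic : (X ^ r - C l : F[X]).Monic := monic_X_pow_sub_C l hr.ne_zero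
  set N := UniqueFactorizationMonoid.normalizedFactors M.charpoly with hN
  have hne : M.charpoly ≠ 0 := (Matrix.charpoly_monic M).ne_zero
  have hann : aeval M (X ^ r - C l : F[X]) = 0 := by
    simp [hM, Algebra.algebraMap_eq_smul_one]
  have hmon : ∀ Q ∈ N, Q.Monic := by
    intro Q hQ
    have iQ := UniqueFactorizationMonoid.irreducible_of_normalized_factor Q hQ
    rw [← UniqueFactorizationMonoid.normalize_normalized_factor Q hQ]
    exact monic_normalize iQ.ne_zero
  have hmem : ∀ Q ∈ N, Q = X ^ r - C l := by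
    intro Q hQ
    have iQ := UniqueFactorizationMonoid.irreducible_of_normalized_factor Q hQ
    have dQ := Cfsg.Agent.Lib.Helper48.dvd_of_aeval_eq_zero' M _ Q hann iQ
      (UniqueFactorizationMonoid.dvd_of_mem_normalizedFactors hQ)
    exact eq_of_monic_of_associated (hmon Q hQ) hmonic (iQ.associated_of_dvd hirr dQ)
  have hprod : M.charpoly = N.prod :=
    (eq_of_monic_of_associated (monic_multiset_prod_of_monic N id (fun Q hQ => hmon Q hQ) |> fun h => by
      simpa using h) (Matrix.charpoly_monic M)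
      (UniqueFactorizationMonoid.prod_normalizedFactors hne)).symm
  rw [Multiset.eq_replicate_card.mpr hmem, Multiset.prod_replicate] at hprod
  refine ⟨Multiset.card N, ?_, hprod⟩
  have h2 := congrArg natDegree hprod
  rw [Matrix.charpoly_natDegree_eq_dim, Fintype.card_fin, hmonic.natDegree_pow,
    natDegree_X_pow_sub_C] at h2
  rw [h2, mul_comm]

/-- type B: existence. -/
theorem exists_typeB [Fintype F] (p : ℕ) [Fact p.Prime] [CharP F p] {n : ℕ} (hn : 1 ≤ n)
    (l : F) (hl0 : l ≠ 0) (k : ℕ) (hk : n = r * k) :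
    ∃ g : GL (Fin n) F, (g : Matrix (Fin n) (Fin n) F) ^ r = l • 1 ∧ (orderOf g).Coprime p ∧
      (g : Matrix (Fin n) (Fin n) F).charpoly = (X ^ r - C l) ^ k := by
  have hr : r.Prime := Fact.out
  have hmonic : (X ^ r - C l : F[X]).Monic := monic_X_pow_sub_C l hr.ne_zero
  have hk0 : k ≠ 0 := by
    rintro rfl
    omega
  have h0 : ((X ^ r - C l : F[X]) ^ k).coeff 0 ≠ 0 := by
    intro h
    have hX : (X : F[X]) ∣ (X ^ r - C l) ^ k := X_dvd_iff.mpr h
    have := prime_X.dvd_of_dvd_pow hX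
    rw [X_dvd_iff] at this
    simp [hr.ne_zero.symm, hl0] at this
  have hdeg : ((X ^ r - C l : F[X]) ^ k).natDegree = n := by
    rw [hmonic.natDegree_pow, natDegree_X_pow_sub_C, hk, mul_comm]
  obtain ⟨g, hg, hc⟩ := Cfsg.Agent.Lib.Helper50.SemiConj.exists_GL_coprime p _ (hmonic.pow k)
    hdeg h0
  refine ⟨g, ?_, hg, hc⟩
  have h1 := aeval_eq_zero_of_coprime_order p g hg (X ^ r - C l) k hk0 (by rw [hc])
  simpa [sub_eq_zero, Algebra.algebraMap_eq_smul_one] using h1

end Cfsg.Agent.Lib.Helper65.PR
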