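import Cfsg.Agent.Lib.Helper65.PR.Comb

/-! S2670: the polynomials `∏ (X - ζ^j)^(a j)`. -/

set_option autoImplicit false

namespace Cfsg.Agent.Lib.Helper65.PR

open Polynomial

variable {F : Type*} [Field F] (r : ℕ) [Fact r.Prime] (ζ : F)

/-- `∏_j (X - ζ^j)^(a j)`. -/
noncomputable def pa (a : ZMod r → ℕ) : F[X] := ∏ j : ZMod r, (X - C (ζ ^ j.val)) ^ a j

theorem pa_monic (a : ZMod r → ℕ) : (pa r ζ a).Monic :=
  monic_prod_of_monic _ _ (fun j _ => (monic_X_sub_C _).pow _)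

theorem pa_natDegree (a : ZMod r → ℕ) : (pa r ζ a).natDegree = ∑ j, a j := by
  unfold pa
  rw [natDegree_prod_of_monic _ _ (fun j _ => (monic_X_sub_C _).pow _)]
  apply Finset.sum_congr rfl
  intro j _
  rw [(monic_X_sub_C _).natDegree_pow, natDegree_X_sub_C, mul_one]

variable {r ζ}

theorem zeta_inj (hζ : IsPrimitiveRoot ζ r) : Function.Injective (fun j : ZMod r => ζ ^ j.val) := by
  intro i j h
  exact ZMod.val_injective r (hζ.pow_inj (ZMod.val_lt i) (ZMod.val_lt j) h)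

theorem zeta_add (hζ : IsPrimitiveRoot ζ r) (i j : ZMod r) :
    ζ ^ (i + j).val = ζ ^ i.val * ζ ^ j.val := by
  rw [ZMod.val_add, ← pow_add]
  conv_rhs => rw [← Nat.div_add_mod (i.val + j.val) r, pow_add, pow_mul, hζ.pow_eq_one, one_pow,
    one_mul]

theorem exists_zeta_pow (hζ : IsPrimitiveRoot ζ r) (c : F) (hc : c ^ r = 1) :
    ∃ j : ZMod r, c = ζ ^ j.val := by
  obtain ⟨i, hi, h⟩ := hζ.eq_pow_of_pow_eq_one hc
  exact ⟨(i : ZMod r), by rw [ZMod.val_natCast_of_lt hi, h]⟩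

theorem pa_le (hζ : IsPrimitiveRoot ζ r) (a b : ZMod r → ℕ) (h : pa r ζ a = pa r ζ b)
    (j : ZMod r) : a j ≤ b j := by
  classical
  have h1 : (X - C (ζ ^ j.val)) ^ a j ∣ pa r ζ a :=
    Finset.dvd_prod_of_mem (fun j : ZMod r => (X - C (ζ ^ j.val)) ^ a j) (Finset.mem_univ j)
  rw [h] at h1
  have h2 : pa r ζ b = (X - C (ζ ^ j.val)) ^ b j *
      ∏ i ∈ Finset.univ.erase j, (X - C (ζ ^ i.val)) ^ b i := by
    unfold pa
    rw [← Finset.mul_prod_erase Finset.univ (fun j : ZMod r => (X - C (ζ ^ j.val)) ^ b j)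
      (Finset.mem_univ j)]
  rw [h2] at h1
  have h3 : IsCoprime ((X - C (ζ ^ j.val)) ^ a j)
      (∏ i ∈ Finset.univ.erase j, (X - C (ζ ^ i.val)) ^ b i) := by
    apply IsCoprime.pow_left
    apply IsCoprime.prod_right
    intro i hi
    apply IsCoprime.pow_right
    exact pairwise_coprime_X_sub_C (zeta_inj hζ) (Finset.mem_erase.mp hi).1.symm
  have h4 := h3.dvd_of_dvd_mul_right h1
  exact (pow_dvd_pow_iff (X_sub_C_ne_zero _) (not_isUnit_X_sub_C _)).mp h4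

theorem pa_injective (hζ : IsPrimitiveRoot ζ r) (a b : ZMod r → ℕ) (h : pa r ζ a = pa r ζ b) :
    a = b :=
  funext fun j => le_antisymm (pa_le hζ a b h j) (pa_le hζ b a h.symm j)

theorem pa_dvd (hζ : IsPrimitiveRoot ζ r) (a : ZMod r → ℕ) :
    pa r ζ a ∣ (X ^ r - 1) ^ ∑ j, a j := by
  rw [← Finset.prod_pow_eq_pow_sum]
  apply Finset.prod_dvd_prod_of_dvd
  intro j _
  apply pow_dvd_pow_of_dvd
  rw [dvd_iff_isRoot]
  simp only [IsRoot, eval_sub, eval_pow, eval_X, eval_one]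
  rw [← pow_mul, mul_comm, pow_mul, hζ.pow_eq_one, one_pow, sub_self]

theorem pa_single (j : ZMod r) (n : ℕ) : pa r ζ (Pi.single j n) = (X - C (ζ ^ j.val)) ^ n := by
  classical
  unfold pa
  rw [Finset.prod_eq_single j]
  · rw [Pi.single_eq_same]
  · intro i _ hi
    rw [Pi.single_eq_of_ne hi, pow_zero]
  · intro h; exact absurd (Finset.mem_univ j) h

/-- scaling the roots by `ζ^k`. -/
theorem pa_comp (hζ : IsPrimitiveRoot ζ r) (k : ZMod r) (a : ZMod r → ℕ) :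
    (pa r ζ a).comp (C (ζ ^ k.val)⁻¹ * X) =
      C ((ζ ^ k.val)⁻¹ ^ ∑ j, a j) * pa r ζ (fun j => a (j - k)) := by
  have hz : ζ ^ k.val ≠ 0 := pow_ne_zero _ (hζ.ne_zero (Fact.out : r.Prime).ne_zero)
  unfold pa
  rw [prod_comp, C_pow, ← Finset.prod_pow_eq_pow_sum, ← Finset.prod_mul_distrib]
  have h1 : ∏ j : ZMod r, (X - C (ζ ^ j.val)) ^ a (j - k) =
      ∏ j : ZMod r, (X - C (ζ ^ (j + k).val)) ^ a j := by
    apply (Fintype.prod_equiv (Equiv.addRight k) _ _ _).symm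
    intro j
    simp
  have h2 : ∏ j : ZMod r, (C (ζ ^ k.val)⁻¹ ^ a j * (X - C (ζ ^ j.val)) ^ a (j - k)) =
      ∏ j : ZMod r, (C (ζ ^ k.val)⁻¹ ^ a j * (X - C (ζ ^ (j + k).val)) ^ a j) := by
    rw [Finset.prod_mul_distrib, Finset.prod_mul_distrib, h1]
  rw [h2]
  apply Finset.prod_congr rfl
  intro j _
  rw [pow_comp, sub_comp, X_comp, C_comp, ← mul_pow]
  congr 1
  rw [zeta_add hζ, mul_sub, ← C_mul]
  congr 2
  field_simp

end Cfsg.Agent.Lib.Helper65.PR
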